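import Cfsg.Agent.U6Mult30.Elems

/-! Rules 225 to 229 of the certificate hold. -/

set_option autoImplicit false
set_option maxRecDepth 100000

namespace CfsgLib.U6Mult

theorem rules_ok15 : (List.range 4).all (fun r =>
    sameW (cert.rules.getD (225 + r) ([], [])).1 (cert.rules.getD (225 + r) ([], [])).2) = true := by
  decide +kernel

end CfsgLib.U6Mult
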